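import Mathlib
import Cfsg.Agent.Lib.Lang.Cyclic
import Cfsg.Agent.Lib.Stein.Sub

/-!
# Detecting the simple group inside the inner-diagonal group by a larger Chevalley group
-/

set_option autoImplicit false

namespace CfsgLib.Lang

open Cfsg.Lie Cfsg.Lie.ChevalleyDatum CfsgLib.RGD CfsgLib.Chev CfsgLib.Weyl CfsgLib.ChevAut CfsgLib.Stein

variable {D D' : ChevalleyDatum} [Good D] [Good D'] {F K : Type*} [Field F] [Fintype F] [Field K]

theorem glm_hU (f : K →+* K) (r : ℕ) (c : K) : glm D f (hU D K r c) = hU D K r (f c) := by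
  simp only [hU, nU, map_mul, glm_xU, map_neg, map_inv₀, map_one]

theorem prod_hU_conj {β : Type*} (L : List β) {r : β → ℕ} (hr : ∀ i, r i < D.nroots) (t : β → Kˣ) (s : ℕ) :
    (L.map fun i => hU D K (r i) (t i)).prod * xU D K s 1 * (L.map fun i => hU D K (r i) (t i)).prod⁻¹ =
      xU D K s ((L.map fun i => t i ^ D.pairing (r i) s).prod : Kˣ) := by
  induction L with
  | nil => simp
  | cons i L ih =>
    rw [List.map_cons, List.prod_cons, mul_inv_rev, List.map_cons, List.prod_cons, Units.val_mul,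
      Units.val_zpow_eq_zpow_val, ← hU_conj_xU (hr i) (t i).ne_zero, ← ih]
    simp only [mul_assoc]

theorem torHom_eq_prod (t : Fin D.rank → Kˣ) :
    torHom D K t = ((List.finRange D.rank).map fun i : Fin D.rank => hU D K (D.simple i) (t i)).prod := by
  conv_lhs => rw [← Finset.univ_prod_mulSingle t, Fin.prod_univ_def, map_list_prod, List.map_map]
  simp only [Function.comp_def, torHom_mulSingle]

theorem prod_eq_of_cover (hm : D ∈ [chevG2, chevB2, chevD4, chevF4, chevE6, chevE7, chevE8]) (h : RtOK D)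
    (h' : RtOK D') {T T' : Tab} (hT : Match D T) (hT' : Match D' T') {φ : ℕ → ℕ}
    (hc : ∀ r < D.nroots, MapOK T T' 0 φ (fun _ => 1) (fun _ => 1) r)
    (h0 : ∀ r < D.nroots, φ r < D'.nroots ∧ φ (D.neg r) = D'.neg (φ r)) (f : F →+* K) {ψ : K →+* K}
    (hψ : ∀ x, ψ x = x ^ Fintype.card F) {d : ℕ} (M : ℕ → ℕ → ℤ)
    (hM : ∀ k i : Fin D.rank, ∑ j : Fin D.rank, D.cartan i (D.simple j) * M k j = if i = k then (d : ℤ) else 0)
    (hd : d ∣ Fintype.card F - 1) {w : Equiv.Perm (Fin D.nroots)} {z : GL D.Idx K}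
    (hz : z ∈ D.group K) {n : GL D.Idx K} (hn : n ∈ (stSys h K).N) (ha : (stSys h K).Acts n w)
    (e : n = z⁻¹ * glm D ψ z) (t : Fin D.rank → Kˣ) {g : GL D.Idx F} (hg : g ∈ D.group F)
    (e' : z * torHom D K t * z⁻¹ = glm D f g) {s : ℕ} (hs : s < D'.nroots) :
    ∏ i, (t i ^ Fintype.card F) ^ D'.pairing (φ (w ((rootSys h).simple i))) s =
      ∏ i : Fin D.rank, t i ^ D'.pairing (φ (D.simple i)) s := by
  obtain ⟨θ, C⟩ := exists_cover_steinberg (K := K) h
  obtain ⟨ρ, hρ⟩ := exists_hom_steinberg h (rel_sub h h' hT hT' hc (rel12_xU (K := K))) (rel3_sub rel3_xU h0)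
  have hgen := genOK_of_mem hm
  have hS := stSys_nondeg h (F := K)
  set θ' := (D.group K).subtype.comp θ with hθ'
  have hθ : ∀ r < D.nroots, ∀ c, θ' (D.stGen K r c) = xU D K r c := C.map'
  have hρh : ∀ r < D.nroots, ∀ c, ρ (hG D (D.stGen K) r c) = hU D' K (φ r) c := fun r hr c => by
    rw [map_hG h.root _ _ ρ hρ hr, hG_sub _ (h0 _ hr).2]; rfl
  have hρl : ∀ t, ρ (hList D (D.stGen K) t) =
      ((List.finRange D.rank).map fun i : Fin D.rank => hU D' K (φ (D.simple i)) (t i)).prod := fun t => by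
    rw [hList, map_list_prod, List.map_map]
    simp only [Function.comp_def, hρh _ (simple_lt (Fin.is_lt _))]
  have hψl : ∀ t, glm D' ψ (ρ (hList D (D.stGen K) t)) = ρ (hList D (D.stGen K) (t ^ Fintype.card F)) := fun t => by
    rw [hρl, hρl, map_list_prod, List.map_map]
    simp only [Function.comp_def, glm_hU, hψ, Pi.pow_apply, Units.val_pow_eq_pow_val]
  have hker : ∀ x, θ' x = 1 → glm D' ψ (ρ x) = ρ x := fun x hx => by
    have : x ∈ θ.ker := Subtype.ext hx
    rw [C.ker_eq_center h hgen, C.mem_center_iff h hgen rel3_steinberg] at this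
    obtain ⟨t, ht, rfl⟩ := this
    rw [hψl]
    congr 2
    funext k
    have : t k ^ d = 1 := by simpa using eq_of_comb ht (M k) _ (hM k)
    obtain ⟨m, hm⟩ := hd
    rw [Pi.pow_apply, ← Nat.sub_add_cancel Fintype.card_pos (n := Fintype.card F), hm, pow_succ, pow_mul, this,
      one_pow, one_mul]
  have hfix : ∀ g ∈ D.group F, ∃ x, θ' x = glm D f g ∧ glm D' ψ (ρ x) = ρ x := fun g hg => by
    rw [← stSys_grp h] at hg
    induction hg using Subgroup.closure_induction with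
    | mem x hx =>
      obtain ⟨r, -, c, rfl⟩ := hx
      exact ⟨D.stGen K r (f c), by rw [hθ r r.2, stSys_x, glm_xU],
        by rw [hρ r r.2, glm_xU, hψ, ← map_pow, FiniteField.pow_card]⟩
    | one => exact ⟨1, by simp, by simp⟩
    | mul _ _ _ _ h1 h2 =>
      obtain ⟨x, a, b⟩ := h1; obtain ⟨y, a', b'⟩ := h2
      exact ⟨x * y, by simp only [map_mul, a, a'], by simp only [map_mul, b, b']⟩
    | inv _ _ h1 =>
      obtain ⟨x, a, b⟩ := h1
      exact ⟨x⁻¹, by simp only [map_inv, a], by simp only [map_inv, b]⟩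
  have hlift : ∀ x, ∃ x', θ' x' = glm D ψ (θ' x) ∧ ρ x' = glm D' ψ (ρ x) := fun x => by
    have hx : x ∈ (C.sys h hgen).grp := by rw [C.sys_grp]; trivial
    induction hx using Subgroup.closure_induction with
    | mem x hx =>
      obtain ⟨r, -, c, rfl⟩ := hx
      exact ⟨D.stGen K r (ψ c), by rw [C.sys_x, hθ r r.2, hθ r r.2, glm_xU], by rw [C.sys_x, hρ r r.2, hρ r r.2, glm_xU]⟩
    | one => exact ⟨1, by simp, by simp⟩
    | mul _ _ _ _ h1 h2 =>
      obtain ⟨x, a, b⟩ := h1; obtain ⟨y, a', b'⟩ := h2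
      exact ⟨x * y, by simp only [map_mul, a, a'], by simp only [map_mul, b, b']⟩
    | inv _ _ h1 =>
      obtain ⟨x, a, b⟩ := h1
      exact ⟨x⁻¹, by simp only [map_inv, a], by simp only [map_inv, b]⟩
  obtain ⟨z₁, ez⟩ := C.surjective ⟨z, hz⟩
  replace ez : θ' z₁ = z := congrArg Subtype.val ez
  obtain ⟨z₂, e1, e2⟩ := hlift z₁
  obtain ⟨x, e3, e4⟩ := hfix g hg
  have e5 : θ' (hList D (D.stGen K) t) = torHom D K t := by
    rw [torHom_eq_prod, hList, map_list_prod, List.map_map]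
    simp only [Function.comp_def, map_hG h.root _ _ θ' hθ (simple_lt (Fin.is_lt _))]
    rfl
  have e6 := hker (x⁻¹ * (z₁ * hList D (D.stGen K) t * z₁⁻¹)) (by
    rw [map_mul, map_inv, e3, ← e', map_mul, map_mul, map_inv, ez, e5, inv_mul_cancel])
  simp only [map_mul, map_inv, e4, mul_right_inj, hψl, ← e2] at e6
  rw [← map_N θ' (C.sys_map h hgen)] at hn
  obtain ⟨n₁, hn₁, e7⟩ := hn
  obtain ⟨w', hw', ha'⟩ := (C.sys h hgen).exists_acts_of_mem_N hn₁
  obtain rfl := hS.acts_unique ha (e7 ▸ map_acts θ' (C.sys_map h hgen) ha')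
  have ha₂ : (C.sys h hgen).Acts (z₁⁻¹ * z₂) w := by
    have := ((C.sys h hgen).acts_of_mem_H (C.ker_le_H h hgen (x := z₁⁻¹ * z₂ * n₁⁻¹) (Subtype.ext ?_))).mul ha' hw'
    · rwa [one_mul, inv_mul_cancel_right] at this
    · change θ' _ = 1
      rw [map_mul, map_mul, map_inv, map_inv, e7, e1, ez, e, mul_inv_cancel]
  have e8 : ((List.finRange D.rank).map fun i : Fin D.rank =>
      hU D' K (φ (w ((rootSys h).simple i))) (t i ^ Fintype.card F : Kˣ)).prod = ρ (hList D (D.stGen K) t) := by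
    have : ρ (MulAut.conj (z₁⁻¹ * z₂) (hList D (D.stGen K) (t ^ Fintype.card F))) = ρ (hList D (D.stGen K) t) := by
      rw [MulAut.conj_apply]
      simp only [map_mul, map_inv]
      rw [← mul_right_inj (ρ z₁), ← mul_left_inj (ρ z₁)⁻¹, ← e6]
      group
    rw [← this, hList, map_list_prod, map_list_prod, List.map_map, List.map_map]
    congr 2
    funext i
    have := (C.sys_r3 h hgen rel3_steinberg).conj_h ha₂ hw' ((rootSys h).simple i) (t i ^ Fintype.card F).ne_zero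
    rw [C.sys_h, C.sys_h, rootSys_simple] at this
    simp only [Function.comp_def, MulAut.conj_apply, Pi.pow_apply, this, hρh _ (Fin.is_lt _)]
  have e9 := prod_hU_conj (List.finRange D.rank) (fun i => (h0 _ (w ((rootSys h).simple i)).2).1)
    (fun i => t i ^ Fintype.card F) s
  rw [e8, hρl, prod_hU_conj _ fun i : Fin D.rank => (h0 _ (simple_lt i.2)).1] at e9
  have := xU_injective hs e9
  rwa [Units.val_inj, ← Fin.prod_univ_def, ← Fin.prod_univ_def, eq_comm] at this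

/-- the generator of the torus lifts to an element of order `d N` -/
def covChk (D D' : ChevalleyDatum) (φ : ℕ → ℕ) (W s d n : ℕ) (κ : ℤ) (P U : List (List ℤ)) (c : List ℤ) : Bool :=
  (Weyl.allLt D.rank fun j => Weyl.allLt (n + 1) fun e =>
    sumLt D.rank (fun i => D.cartan i (D.simple j) * g2 U i e) == d * g2 P j e) &&
  Weyl.allLt (n + 2) fun e =>
    (if e = 0 then 0 else sumLt D.rank fun i => D'.pairing (φ (actT W 0 (D.simple i))) s * g2 U i (e - 1)) -
      (if e < n + 1 then sumLt D.rank fun i => D'.pairing (φ (D.simple i)) s * g2 U i e else 0) == κ * c.getD e 0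

theorem sum_mul_pv {l : ℕ} (a : Fin l → ℤ) (U : List (List ℤ)) (n : ℕ) (q : ℤ) :
    ∑ i, a i * pv (g2 U i) n q = pv (fun e => ∑ i, a i * g2 U i e) n q := by
  simp only [pv, Finset.mul_sum, Finset.sum_mul, mul_assoc]
  exact Finset.sum_comm

theorem ne_glm_of_chk [IsAlgClosed K] (hm : D ∈ [chevG2, chevB2, chevD4, chevF4, chevE6, chevE7, chevE8]) (h : RtOK D)
    (h' : RtOK D') {T T' : Tab} (hT : Match D T) (hT' : Match D' T') {φ : ℕ → ℕ}
    (hc : ∀ r < D.nroots, MapOK T T' 0 φ (fun _ => 1) (fun _ => 1) r)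
    (h0 : ∀ r < D.nroots, φ r < D'.nroots ∧ φ (D.neg r) = D'.neg (φ r)) (f : F →+* K) {ψ : K →+* K}
    (hψ : ∀ x, ψ x = x ^ Fintype.card F) {d : ℕ} (hp : d.Prime) (M : ℕ → ℕ → ℤ)
    (hM : ∀ k i : Fin D.rank, ∑ j : Fin D.rank, D.cartan i (D.simple j) * M k j = if i = k then (d : ℤ) else 0)
    (hd : d ∣ Fintype.card F - 1) {w : Equiv.Perm (Fin D.nroots)} {W : ℕ} (hW : ∀ r, (w r : ℕ) = actT W 0 r)
    {s n : ℕ} (hs : s < D'.nroots) {κ : ℤ} (hκ : IsCoprime κ d) {P U : List (List ℤ)} {c : List ℤ}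
    (hk : covChk D D' φ W s d n κ P U c = true) {N : ℕ} (hN : pv (c.getD · 0) (n + 2) (Fintype.card F) = N)
    (hN0 : N ≠ 0) (hdN : d ∣ N) : ∀ z ∈ D.group K, ∀ n' ∈ (stSys h K).N, (stSys h K).Acts n' w →
      n' = z⁻¹ * glm D ψ z → ∀ ζ : Kˣ, IsPrimitiveRoot ζ N → ∀ g ∈ D.group F,
        z * tau D K (fun i => ζ ^ pv (g2 P i) (n + 1) (Fintype.card F)) * z⁻¹ ≠ glm D f g := by
  intro z hz n' hn' ha e ζ hζ g hg e'
  simp only [covChk, Bool.and_eq_true, Weyl.allLt_iff, beq_iff_eq, sumLt_eq, Finset.sum_range (n := D.rank)] at hk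
  obtain ⟨ξ, rfl⟩ := exists_units_pow_eq hp.ne_zero ζ
  set q := Fintype.card F
  have e1 := prod_eq_of_cover hm h h' hT hT' hc h0 f hψ M hM hd hz hn' ha e (fun i => ξ ^ pv (g2 U i) (n + 1) q) hg
    (by
      rw [← e', torHom_eq_tau h]
      congr 3
      funext j
      simp only [monoMap, Matrix.of_apply, ← zpow_mul, ← zpow_finsum, ← zpow_natCast, mul_comm (pv _ _ _)]
      rw [sum_mul_pv, pv, pv, Finset.mul_sum]
      exact congrArg _ (Finset.sum_congr rfl fun e he => by rw [hk.1 j j.2 e (Finset.mem_range.1 he), mul_assoc])) hs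
  simp only [← zpow_natCast, ← zpow_mul, ← zpow_finsum, hW, rootSys_simple, mul_comm (pv _ _ _), mul_assoc,
    ← Finset.mul_sum, sum_mul_pv] at e1
  have e2 : ξ ^ (κ * N) = 1 := by
    rw [← mul_inv_eq_one, ← zpow_sub] at e1
    rw [← e1, ← hN, pv, pv, pv, Finset.mul_sum, Finset.mul_sum]
    congr 1
    rw [Finset.sum_congr rfl fun e he => by rw [← mul_assoc, ← hk.2 e (Finset.mem_range.1 he), sub_mul],
      Finset.sum_sub_distrib, Finset.sum_range_succ', Finset.sum_range_succ _ (n + 1)]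
    simp only [if_true, zero_mul, add_zero, lt_irrefl, if_false, Nat.add_one_ne_zero, Nat.add_sub_cancel]
    congr 1
    · exact Finset.sum_congr rfl fun e _ => by ring
    · exact Finset.sum_congr rfl fun e he => by rw [if_pos (Finset.mem_range.1 he)]
  obtain ⟨a, b, hab⟩ := hκ
  obtain ⟨m, rfl⟩ := hdN
  have e3 : ξ ^ ((d * m : ℕ) : ℤ) = 1 := by
    rw [← one_mul ((d * m : ℕ) : ℤ), ← hab, add_mul, zpow_add, mul_assoc, mul_comm a, zpow_mul, e2, mul_assoc,
      mul_comm b, zpow_mul, zpow_mul, zpow_natCast, zpow_natCast, hζ.1]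
    simp
  rw [zpow_natCast, pow_mul] at e3
  have := Nat.pos_of_ne_zero (right_ne_zero_of_mul hN0)
  exact hζ.pow_ne_one_of_pos_of_lt this.ne' (lt_mul_of_one_lt_left this hp.one_lt) e3

theorem exists_pow_eq_pow_gcd (d : ℕ) (x : Fˣ) : ∃ y : Fˣ, y ^ d = x ^ d.gcd (Fintype.card F - 1) := by
  classical
  refine ⟨x ^ d.gcdA (Fintype.card F - 1), ?_⟩
  rw [← zpow_natCast, ← zpow_natCast, Nat.gcd_eq_gcd_ab, zpow_add, ← zpow_mul, mul_comm, zpow_mul x (_ - _ : ℕ),
    zpow_natCast x (_ - _), ← Fintype.card_units, pow_card_eq_one, one_zpow, mul_one]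

theorem pv_congr {a b : ℕ → ℤ} {n : ℕ} (h : ∀ e < n, a e = b e) (q : ℤ) : pv a n q = pv b n q :=
  Finset.sum_congr rfl fun e he => by rw [h e (Finset.mem_range.1 he)]

/-- the case of a fundamental group of prime order -/
theorem selfcent_cover (hm : D ∈ [chevG2, chevB2, chevD4, chevF4, chevE6, chevE7, chevE8]) (h : RtOK D)
    (h' : RtOK D') {T₁ T₂ : Tab} (hT : Match D T₁) (hT' : Match D' T₂) {φ : ℕ → ℕ}
    (hc : ∀ r < D.nroots, MapOK T₁ T₂ 0 φ (fun _ => 1) (fun _ => 1) r)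
    (h0 : ∀ r < D.nroots, φ r < D'.nroots ∧ φ (D.neg r) = D'.neg (φ r)) {d : ℕ} (hp : d.Prime) (M : ℕ → ℕ → ℤ)
    (hM : ∀ k i : Fin D.rank, ∑ j : Fin D.rank, D.cartan i (D.simple j) * M k j = if i = k then (d : ℤ) else 0)
    {C A S T R W n m : ℕ} (ht : TablesOK D C A S T) (hR : rtTab D.nroots = R) {ds : List ℕ}
    (hds : HasChain D ds) {P₁ P₂ Q₁ Q₂ : List (List ℤ)} {dl : List ℕ} (hs : SmithCert D P₁ P₂ Q₁ Q₂ dl)
    (hd : ∀ i < D.rank, dl.getD i 0 = 1 ∨ dl.getD i 0 = d) (L : List ℕ) (hL : wordChk D.rank D.nroots T W L = true)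
    {P U : List (List ℤ)} {c : List ℤ} (γ : Fin D.nroots) (c1 : eigChk D.rank R S W n P c = true)
    (c2 : cycChk D.rank R W γ n P c = true) {b : List ℤ} {E : List ℕ} {B : List (List ℤ)}
    (c3 : regChk D.rank D.nroots R W γ m b E B = true) {s : ℕ} (hs' : s < D'.nroots) {κ : ℤ} (hκ : IsCoprime κ d)
    (c4 : covChk D D' φ W s d n κ P U c = true) (N N' : ℕ)
    (hN : pv (c.getD · 0) (n + 2) (Fintype.card F) = N) (h1 : N.Coprime (Fintype.card F)) (h2 : N' ∣ N)
    (h3 : N'.Coprime d) (h4 : N'.Coprime ds.prod) (h5 : ¬ (N' : ℤ) ∣ pv (b.getD · 0) m (Fintype.card F))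
    (h6 : ∀ β ∈ E, ∀ β' ∈ E, β ≠ β' → ¬ (N : ℤ) ∣ d.gcd (Fintype.card F - 1) *
      (pv (fun e => sumLt D.rank fun k => coT R β k * g2 P k e) (n + 1) (Fintype.card F) -
        pv (fun e => sumLt D.rank fun k => coT R β' k * g2 P k e) (n + 1) (Fintype.card F)))
    (h7 : d ∣ Fintype.card F - 1 → d ∣ N) : ∃ H : Subgroup (D.group F), IsCyclic H ∧
      Nat.card H = N / d.gcd (Fintype.card F - 1) ∧ Subgroup.centralizer (H : Set (D.group F)) = H := by
  obtain ⟨w, hw, hW⟩ := exists_perm h ht L hL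
  obtain ⟨ψ, hψ⟩ := exists_frob (algebraMap F (AlgebraicClosure F))
  have he := (Nat.dvd_prime hp).1 (d.gcd_dvd_left (Fintype.card F - 1))
  refine selfcent_of_chk hm h ht hR hds hw hW γ c1 c2 c3 N N' _ hN h1 h2 (h3.coprime_dvd_right (d.gcd_dvd_left _)) h4 h5
    (fun β β' a a' e => ?_) (algebraMap F _) hψ ?_ (tau_pow_mem h hs fun i hi x => ?_) (he.imp_right fun e => ?_)
  · rw [ip_poly_chk h hR, ip_poly_chk h hR]
    exact h6 _ a _ a' (Fin.val_ne_of_ne e)
  · rcases he with e | e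
    · rw [e]; exact one_dvd _
    · rw [e]; exact h7 (e ▸ Nat.gcd_dvd_right _ _)
  · rcases hd i hi with e | e <;> rw [e]
    · exact ⟨_, pow_one _⟩
    · exact exists_pow_eq_pow_gcd d x
  · have := e ▸ Nat.gcd_dvd_right d (Fintype.card F - 1)
    refine ⟨by rwa [e], ne_glm_of_chk hm h h' hT hT' hc h0 _ hψ hp M hM this hW hs' hκ c4 hN ?_ (h7 this)⟩
    rintro rfl
    exact Fintype.one_lt_card.ne' (Nat.coprime_zero_left _ |>.1 h1)

end CfsgLib.Lang
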